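import Cfsg.Agent.H140.TW.R1
import Cfsg.Agent.H140.TW.GoodFrame
import Cfsg.Agent.H140.TW.NegInv
import Cfsg.Agent.H144.TW.Refl
import Cfsg.Agent.H311.TW.Good
import Cfsg.Agent.H370.TW.Glue
import Cfsg.Agent.H370.TW.Cube
import Cfsg.Agent.H455.TW.NegRefl

/-!
# S2452, `Ω_(2n+1)(q)`, `q` odd, `n` even: assembly (helper140, second hand)
-/

set_option autoImplicit false
set_option linter.unusedSectionVars false

namespace Cfsg.Agent.H140.TW

open Module QuadraticMap Matrix Polynomial Cfsg.Agent.LieClassical.OrthCore Cfsg.Agent.LieClassical.OrthTrans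
  Cfsg.Agent.LieClassical.OrthFinite Cfsg.Agent.H140.OreO Cfsg.Agent.H126.PwO Cfsg.Agent.H962.PP
  Cfsg.Agent.H141.SpinFacts Cfsg.Agent.H160.QSpin Cfsg.Agent.H140.TC Cfsg.Agent.H781.TC6
  Cfsg.Agent.LieClassical.OrthForms
open Cfsg.Agent.H434.Corn (MaxTS)
open Cfsg.Agent.H588.TW (T52)

/-- the polynomial of `-B⁻¹` -/
theorem rp_neg_inv {F : Type*} [Field F] {d : ℕ} {B : GL (Fin d) F}
    (hB : RP d (B : Matrix (Fin d) (Fin d) F).charpoly) :
    RP d (-((B⁻¹ : GL (Fin d) F) : Matrix (Fin d) (Fin d) F)).charpoly where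
  monic := Matrix.charpoly_monic _
  irr := irr_neg_inv hB.irr
  deg := by rw [Matrix.charpoly_natDegree_eq_dim, Fintype.card_fin]
  cop := cop_neg_inv hB.cop

section

variable {F V : Type*} [Field F] [AddCommGroup V] [Module F V] {Q : QuadraticForm F V}

theorem det_Om {g : V ≃ₗ[F] V} (hg : g ∈ Om Q) : LinearEquiv.det g = 1 := by
  have h : ⁅O Q, O Q⁆ ≤ (LinearEquiv.det (R := F) (M := V)).ker := by
    rw [Subgroup.commutator_le]
    intro a _ b _
    rw [MonoidHom.mem_ker, map_commutatorElement, commutatorElement_eq_one_iff_mul_comm, mul_comm]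
  exact h hg

theorem not_refl [FiniteDimensional F V] (h2 : (2 : F) ≠ 0) {g : V ≃ₗ[F] V}
    (hg : LinearEquiv.det g = 1) {z : V} (hz : Q z ≠ 0) :
    ¬ ∀ v, g v = v - (polar Q z v / Q z) • z := by
  intro h
  have h1 : g = refl Q z hz := by
    apply LinearEquiv.ext
    intro v
    rw [h, refl_apply, div_eq_inv_mul]
  rw [h1, det_refl hz] at hg
  have h3 : (((-1 : Fˣ)) : F) = ((1 : Fˣ) : F) := congrArg Units.val hg
  rw [Units.val_neg, Units.val_one] at h3
  apply h2
  linear_combination -h3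

/-- **The covering statement.** -/
theorem twoOf_even [Finite F] [FiniteDimensional F V] (h2 : (2 : F) ≠ 0) (hQ : Nondeg Q) {k : ℕ}
    (hk : 2 ≤ k) (hke : Even k) (hdim : finrank F V = 2 * (k + 2) + 1) {e e' : Fin (k + 2) → V}
    (hf : Frame Q e e') {B : GL (Fin (k + 1)) F}
    (hB : RP (k + 1) (B : Matrix (Fin (k + 1)) (Fin (k + 1)) F).charpoly)
    (hBd : (B : Matrix (Fin (k + 1)) (Fin (k + 1)) F).det = 1) {X₀ Y₀ : GL (Fin (k + 2)) F}
    (hX₀ : (X₀ : Matrix (Fin (k + 2)) (Fin (k + 2)) F) = blk 1 B)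
    (hY₀ : (Y₀ : Matrix (Fin (k + 2)) (Fin (k + 2)) F) =
        blk (-1) (-((B⁻¹ : GL (Fin (k + 1)) F) : Matrix (Fin (k + 1)) (Fin (k + 1)) F))) :
    TwoOf Q ((autE hf.toModel).symm (lev X₀ 1)) ((autE hf.toModel).symm (lev Y₀ 1)) := by
  intro g hg hs
  have : Finite V := Module.finite_of_finite F
  have hgO : g ∈ O Q := Om_le hg
  have hWm : ∀ W, MaxTS Q W → finrank F W = k + 2 := by
    intro W hW
    have h3 := hW.bounds hQ
    omega
  have hBB : (B : Matrix (Fin (k + 1)) (Fin (k + 1)) F) *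
      ((B⁻¹ : GL (Fin (k + 1)) F) : Matrix (Fin (k + 1)) (Fin (k + 1)) F) = 1 := by
    rw [← Units.val_mul, mul_inv_cancel, Units.val_one]
  have hBi : ((B⁻¹ : GL (Fin (k + 1)) F) : Matrix (Fin (k + 1)) (Fin (k + 1)) F).det = 1 := by
    have h3 := congrArg Matrix.det hBB
    rwa [det_mul, hBd, one_mul, det_one] at h3
  by_cases hR : H781.TW.R1 Q g
  · -- `g` is scalar or plus or minus a reflection
    have hsq := R1_sq h2 hQ (by
      obtain ⟨W, -, hW⟩ := H434.Corn.exists_maxTS (Q := Q) (T := (⊥ : Submodule F V)) (fun x hx => by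
        rw [(Submodule.mem_bot F).1 hx, QuadraticMap.map_zero])
      exact ⟨W, hW, by rw [hWm W hW]; omega⟩) hgO hR
    rcases H144.TW.R1_refl h2 hQ (by omega) hgO hR hsq with ⟨c, hc⟩ | ⟨z, hz, h | h⟩
    · obtain ⟨v, hv⟩ := hs c
      exact absurd (hc v) hv
    · exact absurd h (not_refl h2 (det_Om hg) hz)
    · -- `X₀ * Y₀ = -1`, elements of nonsquare determinant
      have hXY : X₀ * Y₀ = -1 := by
        apply Units.ext
        have h5 : (B : Matrix (Fin (k + 1)) (Fin (k + 1)) F) *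
            -((B⁻¹ : GL (Fin (k + 1)) F) : Matrix (Fin (k + 1)) (Fin (k + 1)) F) = -1 := by
          rw [mul_neg, hBB]
        rw [Units.val_mul, hX₀, hY₀, blk_mul, h5, one_mul, Units.val_neg, Units.val_one]
        ext i j
        refine Fin.cases ?_ (fun i => ?_) i <;> refine Fin.cases ?_ (fun j => ?_) j
        · simp
        · simp only [blk_zero_succ, Matrix.neg_apply, Matrix.one_apply, (Fin.succ_ne_zero j).symm, if_false, neg_zero]
        · simp
        · simp [Matrix.one_apply]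
      obtain ⟨ν, hν⟩ : ∃ ν : F, ¬ IsSquare ν := by
        have : Fintype F := Fintype.ofFinite F
        exact FiniteField.exists_nonsquare (fun h => h2 (by
          have : CharP F 2 := ringChar.of_eq h
          exact CharTwo.two_eq_zero))
      have hν0 : ν ≠ 0 := by
        rintro rfl
        exact hν ⟨0, by simp⟩
      obtain ⟨T, hT⟩ : ∃ T : GL (Fin (k + 2)) F, (T : Matrix (Fin (k + 2)) (Fin (k + 2)) F) =
          blk ν (1 : Matrix (Fin (k + 1)) (Fin (k + 1)) F) :=
        ⟨Matrix.GeneralLinearGroup.mkOfDetNeZero (blk ν 1) (by rw [blk_det, det_one, mul_one]; exact hν0), rfl⟩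
      have hTd : ¬ IsSquare (T : Matrix (Fin (k + 2)) (Fin (k + 2)) F).det := by
        rw [hT, blk_det, det_one, mul_one]; exact hν
      refine H455.TW.neg_refl h2 hQ hdim (by omega) (hke.add even_two) hf hXY (T := T) (T' := T) ?_ hTd ?_ hTd hg hz h
      · apply Units.ext
        rw [Units.val_mul, Units.val_mul, hT, hX₀, blk_mul, blk_mul, one_mul, mul_one, mul_one, one_mul]
      · apply Units.ext
        rw [Units.val_mul, Units.val_mul, hT, hY₀, blk_mul, blk_mul, one_mul, mul_one, mul_comm ν]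
  · obtain ⟨W, hW, h3, h4⟩ := H311.TW.exists_good hQ hgO hs (fun W hW => by rw [hWm W hW]; omega) hR
    obtain ⟨w, w', hfw, hS, hAd, c, hc, hcm⟩ := goodFrame hQ hg hdim hW (hWm W hW) h3 h4
      (one_ne_zero (α := F))
    rw [one_mul] at hAd
    refine H370.TW.good_pr h2 hQ (by omega) hf hB (rp_neg_inv hB) ?_ hX₀ hY₀ hgO hfw hS hAd hc hcm
    rw [hBd, det_neg, hBi, Fintype.card_fin, pow_succ, hke.neg_one_pow]
    ring

end

/-- **The row `Ω_(2n+1)(q)`, `q` odd, `n = k + 2 ≥ 4` even.** -/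
theorem t52_even {F : Type*} [Field F] [Fintype F] (hodd : Odd (Fintype.card F)) {k : ℕ} (hk : 2 ≤ k)
    (hke : Even k) : T52 (Cfsg.POmega F (Cfsg.quadFormOdd (k + 2) F)) := by
  have h2 : (2 : F) ≠ 0 := by
    intro h0
    have : CharP F 2 := CharTwo.of_one_ne_zero_of_two_eq_zero one_ne_zero h0
    have h3 := (FiniteField.even_card_iff_char_two (F := F)).1 (ringChar.eq F 2)
    rw [Nat.odd_iff] at hodd
    omega
  refine H370.TW.t52_odd_inv hodd hk hke fun r f B X₀ Y₀ e e' hf _ _ hgf hB hBd _ hX₀ hY₀ => ?_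
  refine twoOf_even h2 (nondeg_oddForm (k + 2) F h2) hk hke ?_ hf (B := B) ?_ hBd hX₀ hY₀
  · rw [Module.finrank_fintype_fun_eq_card]
    simp only [Fintype.card_sum, Fintype.card_unit, Fintype.card_fin]
    omega
  · rw [hB]
    exact ⟨hgf.monic, hgf.irr, hgf.deg, hgf.cop⟩

end Cfsg.Agent.H140.TW
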